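import Cfsg.Agent.Lib.Helper78.EigenDet
import Cfsg.Agent.Lib.Helper78.DimBlock
import Cfsg.Agent.Lib.Helper20.CharCongr
import Cfsg.Agent.Lib.Helper82.Ortho
import Cfsg.Agent.Lib.Helper82.CharKer
import Cfsg.Agent.Lib.Helper82.Codegree

/-!
# Values of characters of perfect groups at involutions
-/

set_option autoImplicit false
open Cfsg
open scoped ComplexConjugate

namespace Cfsg.Agent.Lib.Helper80

/-- In a perfect group, `χ(t) = χ(1) - 4k` for `t² = 1`. -/
theorem invol_value {G : Type*} [Group G] [Finite G] (hperf : commutator G = ⊤) {χ : G → ℂ}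
    (hχ : IsCharacter G χ) (t : G) (ht : t ^ 2 = 1) :
    ∃ k : ℕ, 2 * k ≤ charDegree χ ∧ χ t = (charDegree χ : ℂ) - 4 * k := by
  classical
  obtain ⟨ι, _, d, hd, hval, hprod⟩ :=
    Helper78.exists_eigen_family_of_perfect hperf hχ t 2 (by norm_num) ht
  have hd' : ∀ i, d i = if d i = -1 then (-1 : ℂ) else 1 := by
    intro i
    split_ifs with h
    · exact h
    · have h1 : (d i - 1) * (d i + 1) = 0 := by linear_combination hd i
      rcases mul_eq_zero.1 h1 with h2 | h2
      · linear_combination h2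
      · exact absurd (by linear_combination h2) h
  obtain ⟨m, hm⟩ : ∃ m, m = (Finset.univ.filter fun i => d i = -1).card := ⟨_, rfl⟩
  have hmle : m ≤ Fintype.card ι := by
    rw [hm]; exact Finset.card_le_univ _
  have hcompl : (Finset.univ.filter fun i => ¬ d i = -1).card = Fintype.card ι - m := by
    have := Finset.card_filter_add_card_filter_not (s := (Finset.univ : Finset ι))
      (fun i => d i = -1)
    rw [Finset.card_univ] at this
    omega
  have hp0 : ∏ i, d i = (-1 : ℂ) ^ m := by
    rw [Finset.prod_congr rfl (fun i _ => hd' i), Finset.prod_ite, Finset.prod_const,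
      Finset.prod_const_one, mul_one, hm]
  have hp : (-1 : ℂ) ^ m = 1 := by rw [← hp0, hprod]
  have heven : Even m := (neg_one_pow_eq_one_iff_even (by norm_num)).1 hp
  obtain ⟨k, hk⟩ := heven
  have h0 : χ 1 = (Fintype.card ι : ℂ) := by
    have := hval 0
    simpa using this
  have hdeg : (charDegree χ : ℂ) = (Fintype.card ι : ℂ) := by
    rw [← Helper82.isChar_one_eq hχ, h0]
  have hdeg' : charDegree χ = Fintype.card ι := by exact_mod_cast hdeg
  refine ⟨k, by omega, ?_⟩
  have h1 := hval 1
  simp only [pow_one] at h1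
  rw [h1, Finset.sum_congr rfl (fun i _ => hd' i), Finset.sum_ite, Finset.sum_const,
    Finset.sum_const, ← hm, hcompl, hdeg, nsmul_eq_mul, nsmul_eq_mul, Nat.cast_sub hmle, hk]
  push_cast
  ring

/-- If moreover `x` is a `p`-element commuting with `t` (`p` odd) and `χ (x t) = a` is a rational
integer, then `χ(t) ≡ a` modulo `p`. -/
theorem invol_value_modEq {G : Type*} [Group G] [Finite G] {p : ℕ} (hp : p.Prime) (hp2 : p ≠ 2)
    {χ : G → ℂ} (hχ : IsCharacter G χ) (t x : G) (ht : orderOf t = 2) (hc : Commute x t)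
    {j : ℕ} (hx : x ^ (p ^ j) = 1) (a c : ℤ) (ha : χ (x * t) = a) (hcv : χ t = c) :
    c ≡ a [ZMOD p] := by
  obtain ⟨M, hM⟩ := Helper78.exists_isPModular hp
  have h1 := Helper20.isCharacter_mul_sub_memLocalIdeal hM hχ hc hx (by
    rw [ht]
    intro h
    exact hp2 ((Nat.prime_dvd_prime_iff_eq hp Nat.prime_two).1 h))
  rw [ha, hcv] at h1
  have h2 : MemLocalIdeal M (((a - c : ℤ)) : ℂ) := by
    push_cast
    exact h1
  rw [Helper78.memLocalIdeal_intCast_iff hM] at h2
  exact (Int.modEq_iff_dvd).2 h2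

end Cfsg.Agent.Lib.Helper80
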