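import Mathlib
import Cfsg.Agent.Lib.Helper80.GACover

set_option autoImplicit false
set_option linter.unusedSectionVars false
set_option linter.style.haveILetI false

namespace Cfsg.Agent.Lib.Helper80

open scoped BigOperators

namespace GA

variable {k : Type*} {G : Type*} [Field k] [Group G] [Fintype G]

theorem act_pow {Q : Subgroup G} {x u : G} (hx : x ∈ Nn Q)
    (h : ∀ q ∈ Q, x * q * x⁻¹ = u * q * u⁻¹) :
    ∀ j : ℕ, ∀ q ∈ Q, x ^ j * q * (x ^ j)⁻¹ = u ^ j * q * (u ^ j)⁻¹ := by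
  intro j
  induction j with
  | zero => intro q _; simp
  | succ j ih =>
    intro q hq
    have h1 : x ^ j * q * (x ^ j)⁻¹ ∈ Q :=
      (Subgroup.mem_normalizer_iff.1 ((Nn Q).pow_mem hx j) q).1 hq
    calc x ^ (j + 1) * q * (x ^ (j + 1))⁻¹ = x * (x ^ j * q * (x ^ j)⁻¹) * x⁻¹ := by
          rw [pow_succ']; group
      _ = u * (x ^ j * q * (x ^ j)⁻¹) * u⁻¹ := h _ h1
      _ = u * (u ^ j * q * (u ^ j)⁻¹) * u⁻¹ := by rw [ih q hq]
      _ = u ^ (j + 1) * q * (u ^ (j + 1))⁻¹ := by rw [pow_succ']; group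

theorem mem_Cn_iff_conj {Q : Subgroup G} {x : G} : x ∈ Cn Q ↔ ∀ q ∈ Q, x * q * x⁻¹ = q := by
  rw [mem_Cn]
  constructor
  · intro h q hq
    rw [← h q hq]; group
  · intro h q hq
    calc q * x = (x * q * x⁻¹) * x := by rw [h q hq]
      _ = x * q := by group

/-- coprime action: a `p'`-element centralising `R` and `Q/R` centralises the `p`-group `Q` -/
theorem mem_Cn_of_stabilizes_chain {p : ℕ} [Fact p.Prime] {Q R : Subgroup G} {x : G}
    (hQ : IsPGroup p Q) (hRQ : R ≤ Q) (hxo : ¬ p ∣ orderOf x) (hxR : x ∈ Cn R)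
    (h : ∀ q ∈ Q, q⁻¹ * (x * q * x⁻¹) ∈ R) : x ∈ Cn Q := by
  rw [mem_Cn_iff_conj]
  intro q hq
  obtain ⟨r, hr⟩ : ∃ r, r = q⁻¹ * (x * q * x⁻¹) := ⟨_, rfl⟩
  have hrR : r ∈ R := hr ▸ h q hq
  have hxq : x * q * x⁻¹ = q * r := by rw [hr]; group
  have hxr : x * r * x⁻¹ = r := mem_Cn_iff_conj.1 hxR r hrR
  have hpow : ∀ j : ℕ, x ^ j * q * (x ^ j)⁻¹ = q * r ^ j := by
    intro j
    induction j with
    | zero => simp
    | succ j ih =>
      have hxrj : x * r ^ j * x⁻¹ = r ^ j := by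
        have := mem_Cn_iff_conj.1 hxR (r ^ j) (R.pow_mem hrR j)
        exact this
      calc x ^ (j + 1) * q * (x ^ (j + 1))⁻¹ = x * (x ^ j * q * (x ^ j)⁻¹) * x⁻¹ := by
            rw [pow_succ']; group
        _ = x * (q * r ^ j) * x⁻¹ := by rw [ih]
        _ = (x * q * x⁻¹) * (x * r ^ j * x⁻¹) := by group
        _ = q * r ^ (j + 1) := by rw [hxq, hxrj, pow_succ']; group
  have h1 := hpow (orderOf x)
  rw [pow_orderOf_eq_one] at h1
  have h2 : r ^ orderOf x = 1 := by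
    have : q = q * r ^ orderOf x := by simpa using h1
    exact (mul_eq_left.1 this.symm)
  obtain ⟨n, hn⟩ := hQ ⟨r, hRQ hrR⟩
  have h3 : r ^ (p ^ n) = 1 := by simpa using congrArg (fun t : Q => (t : G)) hn
  have hcop : Nat.Coprime (orderOf x) (p ^ n) :=
    (Nat.Coprime.pow_left n ((Nat.Prime.coprime_iff_not_dvd Fact.out).2 hxo)).symm
  have h4 : r = 1 := by
    have h5 : orderOf r ∣ 1 := by
      rw [← hcop.gcd_eq_one]
      exact Nat.dvd_gcd (orderOf_dvd_of_pow_eq_one h2) (orderOf_dvd_of_pow_eq_one h3)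
    exact orderOf_eq_one_iff.1 (Nat.dvd_one.1 h5)
  rw [hxq, h4, mul_one]

variable {p : ℕ} [Fact p.Prime] [CharP k p]

/-- nilpotency passes between a `G`-stable block of a normal subgroup containing all `p`-regular
elements and the block of `G` with the same idempotent -/
theorem nilB_pIndex_iff (hos : Osima p k G) {N : Subgroup G} (hN : ⊤ ≤ Nn N)
    (hreg : ∀ x : G, ¬ p ∣ orderOf x → x ∈ N) {c : GA k G} (hc : IsBlk N c) (hfix : FixBy ⊤ c)
    [Fintype N] : NilB p (rst N c) ↔ NilB p c := by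
  have hce : emb N (rst N c) = c := emb_rst N hc.inZ.1
  have hctop : IsBlk ⊤ c := hos.isBlk_of_fix le_top (fun x _ hx => hreg x hx) hc hfix
  have hcN : IsBlk (⊤ : Subgroup N) (rst N c) := by rw [← isBlk_emb_iff, hce]; exact hc
  have hnorm : ∀ (x : G), cS x N = N := fun x => cS_eq_self_of_mem_Nn (hN (Subgroup.mem_top x))
  -- the local situation at a subgroup `R`
  have hCle : ∀ R : Subgroup G, N ⊓ Cn R ≤ Cn R := fun R => inf_le_right
  have hCreg : ∀ R : Subgroup G, ∀ x ∈ Cn R, ¬ p ∣ orderOf x → x ∈ N ⊓ Cn R :=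
    fun R x hx hxo => ⟨hreg x hxo, hx⟩
  have hCnorm : ∀ R : Subgroup G, Nn R ≤ Nn (N ⊓ Cn R) := fun R x hx =>
    mem_Nn_of_cS_eq (by rw [cS_inf, hnorm, cS_Cn_of_mem_Nn hx])
  constructor
  · -- the block of `N` is nilpotent
    intro hnil Q f hQf x hx hxo
    obtain ⟨R, hR⟩ : ∃ R, R = Q ⊓ N := ⟨_, rfl⟩
    have hRQ : R ≤ Q := hR ▸ inf_le_left
    have hRN : R ≤ N := hR ▸ inf_le_right
    obtain ⟨fR, hfR, hle⟩ := hQf.1.exists_subpair' hRQ
    have hRb : IsBPOf p c R fR := hle.isBPOf_iff.1 hQf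
    have hxNR : x ∈ Nn R := mem_Nn_of_cS_eq (by
      rw [hR, cS_inf, hnorm, cS_eq_self_of_mem_Nn hx.1])
    have hxR : x ∈ stabP R fR := hle.mem_stabP_of_mem hQf.1 hx hxNR
    have hfRZ : InZ (N ⊓ Cn R) fR := hos.inZ_of_idem (hCle R) (hCreg R) hfR.inZ hfR.idem
    obtain ⟨g, hg, hfg⟩ := exists_blk_of_idem (N ⊓ Cn R) hfRZ hfR.idem hfR.ne_zero
    have hgx : IsBlk (N ⊓ Cn R) (cj x g) := by
      have := hg.cj x
      rwa [cS_eq_self_of_mem_Nn (hCnorm R hxNR)] at this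
    have hfgx : fR * cj x g ≠ 0 := by
      have : fR * cj x g = cj x g := by
        calc fR * cj x g = cj x fR * cj x g := by rw [hxR.2]
          _ = cj x g := by rw [← cj_mul, hfg]
      rw [this]; exact hgx.ne_zero
    obtain ⟨c₁, hc₁, hc₁g⟩ := cover_trans (hCle R) ((Cn_le_Nn R).trans (hCnorm R)) hfR hg hgx
      (by rw [hfg]; exact hg.ne_zero) hfgx
    -- `y = c₁⁻¹ x` fixes `g`
    obtain ⟨y, hy⟩ : ∃ y, y = c₁⁻¹ * x := ⟨_, rfl⟩
    have hyg : cj y g = g := by rw [hy, ← cj_cj, hc₁g, cj_inv_cj]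
    have hyN : y ∈ Nn R := hy ▸ (Nn R).mul_mem ((Nn R).inv_mem (Cn_le_Nn R hc₁)) hxNR
    have hact : ∀ q ∈ R, x * q * x⁻¹ = y * q * y⁻¹ := by
      intro q hq
      have h1 : x * q * x⁻¹ ∈ R := (Subgroup.mem_normalizer_iff.1 hxNR q).1 hq
      have h2 := mem_Cn_iff_conj.1 ((Cn R).inv_mem hc₁) _ h1
      rw [hy, ← h2]; group
    have hp : p.Prime := Fact.out
    obtain ⟨a, m, hm, hyo⟩ := Nat.exists_eq_pow_mul_and_not_dvd (orderOf_pos y).ne' p hp.ne_one
    have hwo : ¬ p ∣ orderOf (y ^ (p ^ a)) := by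
      rw [orderOf_pow_of_dvd (pow_ne_zero a hp.ne_zero) (hyo ▸ Dvd.intro _ rfl), hyo,
        Nat.mul_div_cancel_left _ (pow_pos hp.pos a)]
      exact hm
    have hwN : y ^ (p ^ a) ∈ N := hreg _ hwo
    have hwg : cj (y ^ (p ^ a)) g = g :=
      (fixBy_iff_le_fixer.1 (fun z hz => by
        obtain ⟨j, rfl⟩ := Subgroup.mem_zpowers_iff.1 hz
        exact (fixer g).zpow_mem (show y ∈ fixer g from hyg) j : FixBy (Subgroup.zpowers y) g))
        (Subgroup.npow_mem_zpowers y _)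
    -- the pair of `N`
    have hRu : up N (R.subgroupOf N) = R := up_subgroupOf N hRN
    have hge : emb N (rst N g) = g := emb_rst N (hg.inZ.1.mono inf_le_left)
    have hpair : IsBPOf p (rst N c) (R.subgroupOf N) (rst N g) := by
      refine ⟨⟨(isPGroup_up N).1 (by rw [hRu]; exact hRb.1.1), ?_⟩, hcN, ?_⟩
      · rw [← isBlk_up_iff, up_Cn, hRu, hge]; exact hg
      · apply emb_injective N
        rw [emb_mul, emb_br, hce, hRu, hge]
        calc br R c * g = br R c * fR * g := by rw [mul_assoc, hfg]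
          _ = g := by rw [hRb.2.2, hfg]
    have hw : (⟨y ^ (p ^ a), hwN⟩ : N) ∈ stabP (R.subgroupOf N) (rst N g) := by
      refine ⟨?_, ?_⟩
      · have h1 : (y ^ (p ^ a)) ∈ N ⊓ Nn (up N (R.subgroupOf N)) := by
          rw [hRu]; exact ⟨hwN, (Nn R).pow_mem hyN _⟩
        rw [← up_Nn] at h1
        exact (coe_mem_up N (x := ⟨y ^ (p ^ a), hwN⟩)).1 h1
      · apply emb_injective N
        rw [emb_cj, hge]; exact hwg
    have h1 := hnil _ _ hpair _ hw (by rw [← Subgroup.orderOf_coe]; exact hwo)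
    have h2 : y ^ (p ^ a) ∈ Cn R := by
      have h3 := (coe_mem_up N).2 h1
      rw [up_Cn, hRu] at h3
      exact h3.2
    have h4 : x ^ (p ^ a) ∈ Cn R := by
      rw [mem_Cn_iff_conj]
      intro q hq
      rw [act_pow hxNR hact (p ^ a) q hq]
      exact mem_Cn_iff_conj.1 h2 q hq
    have hxCR : x ∈ Cn R := by
      have hcop : (p ^ a).Coprime (orderOf x) :=
        Nat.Coprime.pow_left a ((Nat.Prime.coprime_iff_not_dvd hp).2 hxo)
      obtain ⟨j, hj⟩ := exists_pow_eq_self_of_coprime hcop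
      rw [← hj]
      exact (Cn R).pow_mem h4 j
    apply mem_Cn_of_stabilizes_chain hQf.1.1 hRQ hxo hxCR
    intro q hq
    rw [hR]
    refine ⟨Q.mul_mem (Q.inv_mem hq) ((Subgroup.mem_normalizer_iff.1 hx.1 q).1 hq), ?_⟩
    have hxN : x ∈ N := hreg x hxo
    have h5 : q⁻¹ * x * q ∈ N := by
      have := (Subgroup.mem_normalizer_iff.1 (hN (Subgroup.mem_top q⁻¹)) x).1 hxN
      simpa using this
    have h6 : q⁻¹ * (x * q * x⁻¹) = (q⁻¹ * x * q) * x⁻¹ := by group
    rw [h6]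
    exact N.mul_mem h5 (N.inv_mem hxN)
  · -- the block of `G` is nilpotent
    intro hnil R' g' h x' hx' hxo
    obtain ⟨R, hR⟩ : ∃ R, R = up N R' := ⟨_, rfl⟩
    obtain ⟨g, hg0⟩ : ∃ g, g = emb N g' := ⟨_, rfl⟩
    have hg : IsBlk (N ⊓ Cn R) g := by
      rw [hR, hg0, ← up_Cn, isBlk_up_iff]; exact h.1.2
    have hbrg : br R c * g = g := by
      have := congrArg (emb N) h.2.2
      rwa [emb_mul, emb_br, hce, ← hR, ← hg0] at this
    have hRp : IsPGroup p R := hR ▸ (isPGroup_up N).2 h.1.1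
    obtain ⟨f, hf, hfg⟩ := hos.exists_cover (hCle R) (hCreg R) hg
    have hRf : IsBP p R f := ⟨hRp, hf⟩
    have hpair : IsBPOf p c R f := by
      refine ⟨hRf, hctop, ?_⟩
      rcases hRf.br_mul_eq (fixBy_top_mono hfix) (fixBy_top_mono hfix) hc.idem with h1 | h1
      · exfalso
        apply hg.ne_zero
        calc g = br R c * (f * g) := by rw [hfg, hbrg]
          _ = 0 := by rw [← mul_assoc, h1, zero_mul]
      · exact h1
    have hxN : (x' : G) ∈ Nn R := by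
      have : (x' : G) ∈ up N (Nn R') := (coe_mem_up N).2 hx'.1
      rw [up_Nn, ← hR] at this
      exact this.2
    have hxg : cj (x' : G) g = g := by rw [hg0, ← emb_cj, hx'.2]
    have hx : (x' : G) ∈ stabP R f := by
      refine ⟨hxN, ?_⟩
      have h1 : IsBlk (Cn R) (cj (x' : G) f) := by
        have := hf.cj (x' : G)
        rwa [cS_Cn_of_mem_Nn hxN] at this
      apply cover_unique h1 hf hg.ne_zero _ hfg
      calc cj (x' : G) f * g = cj (x' : G) f * cj (x' : G) g := by rw [hxg]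
        _ = g := by rw [← cj_mul, hfg, hxg]
    have h1 := hnil R f hpair _ hx (by rw [Subgroup.orderOf_coe]; exact hxo)
    have h2 : (x' : G) ∈ up N (Cn R') := by
      rw [up_Cn, ← hR]
      exact ⟨x'.2, h1⟩
    exact (coe_mem_up N).1 h2

end GA

end Cfsg.Agent.Lib.Helper80
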