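import Mathlib
import Cfsg.Agent.Lib.Helper80.GAPIndex
import Cfsg.Agent.Lib.Helper21.KeyLemma
import Cfsg.Agent.Lib.Helper77.Frobenius

set_option autoImplicit false
set_option linter.unusedSectionVars false
set_option linter.style.haveILetI false

namespace Cfsg.Agent.Lib.Helper80

open scoped BigOperators
open Cfsg Cfsg.Agent.Lib.Helper81 Cfsg.Agent.Lib.Helper20 GA

variable {p : ℕ} [Fact p.Prime] {M : Ideal AlgInt} (hM : IsPModular p M)
  {G : Type*} [Group G] [Fintype G]

/-- Osima's theorem in the modular group algebra -/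
theorem osima_Kr : Osima p (Kr hM) G := by
  intro H c hc g hg
  haveI : Fintype H := Fintype.ofFinite H
  obtain ⟨e, he, rfl⟩ := exists_block_of_isBlk_sub hM H hc
  show resC hM (subgroupBlockCoeff H e g) = 0
  by_cases hgH : g ∈ H
  · rw [subgroupBlockCoeff_mem H e hgH,
      Cfsg.Agent.Lib.Helper21.blockCoeff_eq_zero_of_singular hM e he
        (y := ⟨g, hgH⟩) (by rw [← Subgroup.orderOf_coe]; exact hg), resC_zero]
  · rw [subgroupBlockCoeff_not_mem H e hgH, resC_zero]

/-- exactness: a block of `G` whose reduction is the idempotent of a block of a normal subgroup -/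
theorem blockCoeff_eq_of_blkR_eq {K : Subgroup G} (hKN : ⊤ ≤ Subgroup.normalizer (K : Set G))
    {B : Set (IrrCharacter G)} {f : Set (IrrCharacter K)} (hB : IsPBlock M B)
    (hf : IsPBlock M f) (h : blkR hM B = bl hM K f) (g : G) :
    blockCoeff B g = subgroupBlockCoeff K f g := by
  have hfix : FixBy ⊤ (bl hM K f) := by rw [← h]; exact (blkR_inZ hM B).2
  have hv : IsClassFunction G (subgroupBlockCoeff K f) := by
    intro g y
    have := subgroupBlockCoeff_conj_of_cj_eq hM K hf (hKN (Subgroup.mem_top y⁻¹))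
      (hfix _ (Subgroup.mem_top y⁻¹)) g
    simpa using this
  have hvv : conv (subgroupBlockCoeff K f) (subgroupBlockCoeff K f) = subgroupBlockCoeff K f := by
    apply GA.mk_injective
    rw [GA.mk_conv, subgroupBlockCoeff_idem]
  have := eq_of_red_eq_of_idem hM (blockCoeff_classFunction B) hv (RV_blockCoeff hM hB)
    (RV_subgroupBlockCoeff hM K hf) (conv_blockCoeff_self B) hvv h
  rw [this]

theorem blkR_eq_bl_of_forall {K : Subgroup G} {B : Set (IrrCharacter G)}
    {f : Set (IrrCharacter K)} (h : ∀ g : G, blockCoeff B g = subgroupBlockCoeff K f g) :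
    blkR hM B = bl hM K f := by
  unfold blkR bl
  congr 1
  funext g
  exact h g

theorem fixBy_top_of_stabilizes {N : Subgroup G} [N.Normal] {c : Set (IrrCharacter N)}
    (hc : IsPBlock M c) (hst : ∀ x : G, StabilizesBlock N c x) : FixBy ⊤ (bl hM N c) :=
  fun x _ => (stabilizesBlock_iff hM N hc (by
    rw [Subgroup.normalizer_eq_top]; exact Subgroup.mem_top x)).1 (hst x)

theorem mem_of_regular_of_index {N : Subgroup G} [N.Normal] (hN : ∃ j : ℕ, N.index = p ^ j)
    (x : G) (hx : ¬ p ∣ orderOf x) : x ∈ N := by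
  obtain ⟨j, hj⟩ := hN
  exact Cfsg.Agent.Lib.Helper77.mem_of_coprime_of_index_pow N hj x
    ((Nat.Prime.coprime_iff_not_dvd Fact.out).2 hx).symm

end Cfsg.Agent.Lib.Helper80
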