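import Mathlib
import Cfsg.Agent.Lib.Helper80.GAFMT
import Cfsg.Agent.Lib.Helper80.GANilB
import Cfsg.Agent.Lib.Helper80.GASplitK
import Cfsg.Agent.Lib.Helper80.GAKerT
import Cfsg.Agent.Lib.Helper80.GADef2

set_option autoImplicit false
set_option linter.unusedSectionVars false
set_option linter.style.haveILetI false

/-! A block with abelian defect group is nilpotent iff its Brauer correspondent is. -/

namespace Cfsg.Agent.Lib.Helper80

open scoped BigOperators
open Cfsg Cfsg.Agent.Lib.Helper81 Cfsg.Agent.Lib.Helper20 GA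

theorem nilpotent_corr_iff {p : ℕ} [Fact p.Prime] {M : Ideal AlgInt} (hM : IsPModular p M)
    {G : Type*} [Group G] [Fintype G] {B : Set (IrrCharacter G)} {P : Subgroup G}
    (hPD : IsDefectGroup p M B P) (hab : ∀ x ∈ P, ∀ y ∈ P, x * y = y * x)
    {c : Set (IrrCharacter (Subgroup.normalizer (P : Set G)))}
    (hcD : IsDefectGroup p M c (P.subgroupOf (Subgroup.normalizer (P : Set G))))
    (hc : IsInducedBlock M (Subgroup.normalizer (P : Set G)) c B) :
    IsNilpotentBlock p M c ↔ IsNilpotentBlock p M B := by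
  classical
  have hPL : P ≤ Nn P := Subgroup.le_normalizer
  have hCL : Cn P ≤ Nn P := Cn_le_Nn P
  haveI : Fintype (Nn P) := Fintype.ofFinite _
  have hcB : IsPBlock M c := hc.1
  have hB : IsPBlock M B := hc.2.1
  have hup : up (Nn P) (P.subgroupOf (Nn P)) = P := up_subgroupOf (Nn P) hPL
  -- the pair in the normaliser
  have hdefc : IsDef p ⊤ (blkR hM c) (P.subgroupOf (Nn P)) := isDef_of_isDefectGroup hM hcB hcD
  obtain ⟨e', he'⟩ := (isBlk_blkR hM hcB).exists_isMaxBP_of_isDef hdefc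
  have hdefB : IsDef p ⊤ (blkR hM B) P := isDef_of_isDefectGroup hM hB hPD
  have hQR : P ≤ up (Nn P) (P.subgroupOf (Nn P)) := hup.ge
  have hbp : IsBP p P (emb (Nn P) e') := by
    have := (isBP_up_iff hCL hQR e').2 he'.1.1
    rwa [hup] at this
  have h1 : br P (bl hM (Nn P) c) * emb (Nn P) e' = emb (Nn P) e' := by
    have h2 := congrArg (emb (Nn P)) he'.1.2.2
    rw [emb_mul, emb_br, hup, ← bl_eq_emb] at h2
    exact h2
  have h3 : br P (blkR hM B) * emb (Nn P) e' = emb (Nn P) e' :=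
    (indB_of_isInducedBlock hM hc).br_mul_eq hdefB.pgroup hPL hCL (blkR_inZ hM B)
      (blkR_idem hM hB) (isBlk_bl hM _ hcB).inZ hbp.2 h1
  have hmaxB : IsMaxBP p (blkR hM B) P (emb (Nn P) e') :=
    IsBPOf.isMaxBP_of_isDef ⟨hbp, isBlk_blkR hM hB, h3⟩ hdefB
  -- both sides
  have hab' : ∀ x ∈ P.subgroupOf (Nn P), ∀ y ∈ P.subgroupOf (Nn P), x * y = y * x := by
    intro x hx y hy
    exact Subtype.ext (hab x hx y hy)
  have hsup : P ⊔ Cn P = Cn P := by
    apply sup_eq_right.2
    intro x hx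
    rw [Subgroup.mem_centralizer_iff]
    intro y hy
    exact hab y hy x hx
  have hsup' : P.subgroupOf (Nn P) ⊔ Cn (P.subgroupOf (Nn P)) = Cn (P.subgroupOf (Nn P)) := by
    apply sup_eq_right.2
    intro x hx
    rw [Subgroup.mem_centralizer_iff]
    intro y hy
    exact hab' y hy x hx
  rw [isNilpotentBlock_iff hM hcB, isNilpotentBlock_iff hM hB,
    he'.abelian_nilB_iff hab' (by rw [hsup']; exact split_sub hM he'.1.1.2),
    hmaxB.abelian_nilB_iff hab (by rw [hsup]; exact split_sub hM hbp.2)]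
  have hs : up (Nn P) (stabP (P.subgroupOf (Nn P)) e') = stabP P (emb (Nn P) e') := by
    have := up_stabP (Nn P) (P.subgroupOf (Nn P)) e' (by rw [hup])
    rwa [hup] at this
  have hcn : up (Nn P) (Cn (P.subgroupOf (Nn P))) = Cn P := by
    have := up_Cn_of_le hCL hQR
    rwa [hup] at this
  rw [← hs, ← hcn, up_le_up]

end Cfsg.Agent.Lib.Helper80
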