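import Mathlib
import Cfsg.Agent.Lib.Helper75.SylowPerm

/-!
# A permutation trick for Sylow subgroups of prime order

If `|P| = p`, `y ∈ C_G(P)` has prime order `q ≠ p` and `G` has fewer than `p q` Sylow
`p`-subgroups, then `y` normalizes every Sylow `p`-subgroup.
-/

set_option autoImplicit false

namespace Cfsg.Agent.Lib.Helper80

open Subgroup MulAction

theorem period_le_card {G α : Type*} [Group G] [MulAction G α] [Finite α] (z : G) (a : α) :
    MulAction.period z a ≤ Nat.card α := by
  classical
  have := Fintype.ofFinite α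
  have h := MulAction.minimalPeriod_eq_card (a := z) (b := a)
  have h2 : MulAction.period z a = Fintype.card (orbit (zpowers z) a) := h
  rw [h2, ← Nat.card_eq_fintype_card]
  exact Finite.card_subtype_le _

theorem sylow_trick {G : Type*} [Group G] [Finite G] {p q : ℕ} [Fact p.Prime] (hq : q.Prime)
    (hpq : p ≠ q) (P : Sylow p G) (hP : Nat.card P = p) (y : G)
    (hy : y ∈ centralizer ((P : Subgroup G) : Set G)) (hyq : orderOf y = q)
    (hn : Nat.card (Sylow p G) < p * q) (Q : Sylow p G) : y • Q = Q := by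
  have hp : p.Prime := Fact.out
  have hcop : Nat.Coprime p q := (Nat.coprime_primes hp hq).2 hpq
  -- a generator of `P`
  obtain ⟨x, hxP, hx⟩ : ∃ x ∈ (P : Subgroup G), orderOf x = p := by
    obtain ⟨x, hx⟩ := exists_prime_orderOf_dvd_card' (G := (P : Subgroup G)) p (by rw [hP])
    exact ⟨x.1, x.2, (Subgroup.orderOf_coe x).trans hx⟩
  have hc : Commute x y := (mem_centralizer_iff.1 hy x hxP)
  have hyP : y • P = P :=
    Sylow.smul_eq_iff_mem_normalizer.2 (centralizer_le_normalizer _ hy)
  have hz : orderOf (x * y) = p * q := by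
    rw [hc.orderOf_mul_eq_mul_orderOf_of_coprime (by rw [hx, hyq]; exact hcop), hx, hyq]
  have hj1 : MulAction.period (x * y) Q ∣ p * q := hz ▸ MulAction.period_dvd_orderOf _ _
  have hj2 : MulAction.period (x * y) Q < p * q := lt_of_le_of_lt (period_le_card _ _) hn
  have hj3 := MulAction.pow_period_smul (x * y) Q
  obtain ⟨a, b, ha, hb, hab⟩ := (Nat.dvd_mul).1 hj1
  have key1 : (x * y) ^ p • Q = Q → y • Q = Q := by
    intro h
    have hxp : x ^ p = 1 := by
      have := pow_orderOf_eq_one x
      rwa [hx] at this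
    rw [hc.mul_pow, hxp, one_mul] at h
    obtain ⟨m, hm⟩ := exists_pow_eq_self_of_coprime (x := y) (n := p) (by rw [hyq]; exact hcop)
    have h1 : y ^ p ∈ stabilizer G Q := h
    have h2 := pow_mem h1 m
    rw [hm] at h2
    exact h2
  have key2 : (x * y) ^ q • Q = Q → y • Q = Q := by
    intro h
    have hyq' : y ^ q = 1 := by
      have := pow_orderOf_eq_one y
      rwa [hyq] at this
    rw [hc.mul_pow, hyq', mul_one] at h
    by_cases hQ : Q = P
    · rw [hQ]; exact hyP
    · exfalso
      have h1 := Helper75.eq_one_of_mem_of_smul_eq P Q hP hQ (x ^ q) (pow_mem hxP q) h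
      have h2 : p ∣ q := hx ▸ orderOf_dvd_of_pow_eq_one h1
      exact hpq ((Nat.prime_dvd_prime_iff_eq hp hq).1 h2)
  rcases (Nat.dvd_prime hp).1 ha with rfl | rfl <;> rcases (Nat.dvd_prime hq).1 hb with rfl | rfl
  · apply key1
    rw [← hab] at hj3
    simp only [mul_one, pow_one] at hj3
    have h1 : x * y ∈ stabilizer G Q := hj3
    exact pow_mem h1 p
  · apply key2
    rw [← hab, one_mul] at hj3
    exact hj3
  · apply key1
    rw [← hab, mul_one] at hj3
    exact hj3
  · omega

end Cfsg.Agent.Lib.Helper80
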